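import Cfsg.Agent.Lib.KnownSimple.J3.IsoDefs

/-!
# The Janko group: checks of the orbit tree on vectors
-/

set_option autoImplicit false

namespace Cfsg.Agent.Lib.KnownSimple.J3

open Cfsg Cfsg.Spor Cfsg.Agent.Lib.Compute Cfsg.Agent.Lib.KnownSimple.PE Cfsg.Agent.Lib.KnownSimple.Leech
open Cfsg.Agent.Lib.KnownSimple Cfsg.Agent.Lib.KnownSimple.AutRigid
open Cfsg.Agent.Lib.KnownSimple.J3Data

set_option maxRecDepth 100000 in
theorem cIso0 : chunk isoChk 8192 0 = true := by decide +kernel
set_option maxRecDepth 100000 in
theorem cIso1 : chunk isoChk 8192 1 = true := by decide +kernel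
set_option maxRecDepth 100000 in
theorem cIso2 : chunk isoChk 8192 2 = true := by decide +kernel
set_option maxRecDepth 100000 in
theorem cIso3 : chunk isoChk 8192 3 = true := by decide +kernel
set_option maxRecDepth 100000 in
theorem cIso4 : chunk isoChk 8192 4 = true := by decide +kernel
set_option maxRecDepth 100000 in
theorem cIso5 : chunk isoChk 8192 5 = true := by decide +kernel
set_option maxRecDepth 100000 in
theorem cIso6 : chunk isoChk 8192 6 = true := by decide +kernel
set_option maxRecDepth 100000 in
theorem cIso7 : chunk isoChk 8192 7 = true := by decide +kernel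

end Cfsg.Agent.Lib.KnownSimple.J3
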