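import Cfsg.Agent.Lib.KnownSimple.J3.IsoDefs

/-!
# The Janko group: checks of the orbit tree on vectors
-/

set_option autoImplicit false

namespace Cfsg.Agent.Lib.KnownSimple.J3

open Cfsg Cfsg.Spor Cfsg.Agent.Lib.Compute Cfsg.Agent.Lib.KnownSimple.PE Cfsg.Agent.Lib.KnownSimple.Leech
open Cfsg.Agent.Lib.KnownSimple Cfsg.Agent.Lib.KnownSimple.AutRigid
open Cfsg.Agent.Lib.KnownSimple.J3Data

set_option maxRecDepth 100000 in
theorem cIso24 : chunk isoChk 8192 24 = true := by decide +kernel
set_option maxRecDepth 100000 in
theorem cIso25 : chunk isoChk 8192 25 = true := by decide +kernel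
set_option maxRecDepth 100000 in
theorem cIso26 : chunk isoChk 8192 26 = true := by decide +kernel
set_option maxRecDepth 100000 in
theorem cIso27 : chunk isoChk 8192 27 = true := by decide +kernel
set_option maxRecDepth 100000 in
theorem cIso28 : chunk isoChk 8192 28 = true := by decide +kernel
set_option maxRecDepth 100000 in
theorem cIso29 : chunk isoChk 8192 29 = true := by decide +kernel
set_option maxRecDepth 100000 in
theorem cIso30 : chunk isoChk 8192 30 = true := by decide +kernel
set_option maxRecDepth 100000 in
theorem cIso31 : chunk isoChk 8192 31 = true := by decide +kernel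

end Cfsg.Agent.Lib.KnownSimple.J3
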