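import Cfsg.Agent.Lib.KnownSimple.J3.IsoDefs

/-!
# The Janko group: checks of the orbit tree on points
-/

set_option autoImplicit false

namespace Cfsg.Agent.Lib.KnownSimple.J3

open Cfsg Cfsg.Spor Cfsg.Agent.Lib.Compute Cfsg.Agent.Lib.KnownSimple.PE Cfsg.Agent.Lib.KnownSimple.Leech
open Cfsg.Agent.Lib.KnownSimple Cfsg.Agent.Lib.KnownSimple.AutRigid
open Cfsg.Agent.Lib.KnownSimple.J3Data

set_option maxRecDepth 100000 in
theorem cPt : allBelow ptChk 23256 = true := by decide +kernel

end Cfsg.Agent.Lib.KnownSimple.J3
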