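import Cfsg.Agent.Lib.KnownSimple.J3.Inst
import Cfsg.Agent.Lib.KnownSimple.J3.IsoChk0
import Cfsg.Agent.Lib.KnownSimple.J3.IsoChk1
import Cfsg.Agent.Lib.KnownSimple.J3.IsoChk2
import Cfsg.Agent.Lib.KnownSimple.J3.IsoChk3
import Cfsg.Agent.Lib.KnownSimple.J3.IsoChkP

/-!
# The Janko group: orbits on lines of the nine-dimensional space

The line through the first basis vector has exactly `23256` images and the isotropic lines form a single
orbit.  Both are checked through explicit trees: every vector, resp. point of the table, is carried closer to a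
base vector by a generator.
-/

set_option autoImplicit false

namespace Cfsg.Agent.Lib.KnownSimple.J3

open Cfsg Cfsg.Spor Cfsg.Agent.Lib.Compute Cfsg.Agent.Lib.KnownSimple.PE Cfsg.Agent.Lib.KnownSimple.Leech
open Cfsg.Agent.Lib.KnownSimple Cfsg.Agent.Lib.KnownSimple.AutRigid
open Cfsg.Agent.Lib.KnownSimple.J3Data
open scoped Matrix MatrixGroups

theorem isoAll : allBelow isoChk (32 * 8192) = true := allBelow_of_chunks (fun c hc => by
    interval_cases c
    · exact cIso0
    · exact cIso1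
    · exact cIso2
    · exact cIso3
    · exact cIso4
    · exact cIso5
    · exact cIso6
    · exact cIso7
    · exact cIso8
    · exact cIso9
    · exact cIso10
    · exact cIso11
    · exact cIso12
    · exact cIso13
    · exact cIso14
    · exact cIso15
    · exact cIso16
    · exact cIso17
    · exact cIso18
    · exact cIso19
    · exact cIso20
    · exact cIso21
    · exact cIso22
    · exact cIso23
    · exact cIso24
    · exact cIso25
    · exact cIso26
    · exact cIso27
    · exact cIso28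
    · exact cIso29
    · exact cIso30
    · exact cIso31
  )

theorem lt_of_blt {a b : ℕ} (h : Nat.blt a b = true) : a < b := by simpa [Nat.blt_eq] using h

section field

variable {F : Type} [Field F] {ω : F}

theorem gen_mem (hg : Good ω) {k : ℕ} (hk : k < 43) : ∃ g ∈ threeJ3 F ω, g.1 = matK J ω k := by
  obtain ⟨g, e⟩ := exists_unit J hg (show k < 47 by omega)
  exact ⟨g, Subgroup.subset_closure (by
    show g.1 ∈ j3Gens F ω
    rw [e]
    exact matK_mem J hk), e⟩

theorem iso_tree (hg : Good ω) : ∀ (l y : ℕ), y < 262144 → isoL y = l → l ≠ 7 →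
    ∃ g ∈ threeJ3 F ω, ∃ c : F, c ≠ 0 ∧ g.1 *ᵥ vecOf ω y = c • vecOf ω 5 := by
  intro l
  induction l using Nat.strong_induction_on with
  | _ l ih =>
    intro y hy hl hl7
    have h := (allBelow_iff _ _).1 isoAll y (by omega)
    unfold isoChk at h
    rw [force_eq, force_eq] at h
    have hl' : Nat.land (isoE y) 7 = l := hl
    rw [hl'] at h
    have e7 : Nat.beq l 7 = false := by
      rw [Bool.eq_false_iff]
      exact fun h7 => hl7 (Nat.eq_of_beq_eq_true h7)
    rw [e7, bcond_false] at h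
    cases e0 : Nat.beq l 0
    · rw [e0, bcond_false, force_eq] at h
      cases e1 : Nat.blt (Nat.shiftRight (isoE y) 3) 43
      · rw [e1, bcond_false] at h
        exact absurd h (by simp)
      · rw [e1, bcond_true, force_eq] at h
        have hk : Nat.shiftRight (isoE y) 3 < 43 := by simpa [Nat.blt_eq] using e1
        generalize Nat.shiftRight (isoE y) 3 = k at h hk
        cases e2 : Nat.blt (matEval (gC k) y) 262144
        · rw [e2, bcond_false] at h
          exact absurd h (by simp)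
        · rw [e2, bcond_true] at h
          have hz : matEval (gC k) y < 262144 := by simpa [Nat.blt_eq] using e2
          have hzl : isoL (matEval (gC k) y) < l := lt_of_blt h
          obtain ⟨g', hg', c, hc, e⟩ := ih _ hzl _ hz rfl (by
            have h8 : l ≤ 7 := by
              rw [← hl']
              exact Nat.and_le_right
            omega)
          obtain ⟨g₀, hg₀, e₀⟩ := gen_mem hg hk
          have h5 := mulVec_vecOf hg (M := matK J ω k) (gk := J.gC k) (fun _ _ => rfl)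
            (colOK_k J (show k < 47 by omega)) y
          refine ⟨g' * g₀, mul_mem hg' hg₀, c, hc, ?_⟩
          show (g'.1 * g₀.1) *ᵥ _ = _
          rw [← Matrix.mulVec_mulVec, e₀, h5]
          exact e
    · rw [e0, bcond_true, force_eq] at h
      cases e1 : Nat.blt 0 (lcN y)
      · rw [e1, bcond_false] at h
        exact absurd h (by simp)
      · rw [e1, bcond_true] at h
        have hs : 0 < lcN y := by simpa [Nat.blt_eq] using e1
        have hd : ∀ m, m < 9 → dg y m = mulN (lcN y) (dg 5 m) := fun m hm =>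
          Nat.eq_of_beq_eq_true ((allBelow_iff _ _).1 h m hm)
        have h6 := vec_smul_of_digits hg hs (lcN_lt y) hd
        refine ⟨1, one_mem _, φ ω (lcN y), φ_ne_zero hg _ hs (lcN_lt y), ?_⟩
        show (1 : Matrix F9 F9 F) *ᵥ _ = _
        rw [Matrix.one_mulVec, h6]

theorem dg_eq (c k : ℕ) : dg c k = c / 4 ^ k % 4 := by
  show (c >>> (2 * k)) &&& 3 = _
  rw [Nat.shiftRight_eq_div_pow, pow_mul]
  exact Nat.and_two_pow_sub_one_eq_mod _ 2

theorem dg_of_digits (D : ℕ → ℕ) (hD : ∀ k, D k < 4) : ∀ k, k < 9 →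
    dg (D 0 + 4 * D 1 + 16 * D 2 + 64 * D 3 + 256 * D 4 + 1024 * D 5 + 4096 * D 6 + 16384 * D 7 + 65536 * D 8) k
      = D k := by
  intro k hk
  rw [dg_eq]
  have h0 := hD 0
  have h1 := hD 1
  have h2 := hD 2
  have h3 := hD 3
  have h4 := hD 4
  have h5 := hD 5
  have h6 := hD 6
  have h7 := hD 7
  have h8 := hD 8
  interval_cases k <;> norm_num <;> omega

theorem exists_code_vec [Fintype F] (hF : Fintype.card F = 4) (hg : Good ω) (v : F9 → F) :
    ∃ y, y < 262144 ∧ vecOf ω y = v := by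
  have hinj : Function.Injective (fun a : Fin 4 => φ ω a.val) := by
    intro a b h
    exact Fin.ext (φ_inj hg _ _ a.isLt b.isLt h)
  have hsurj : Function.Surjective (fun a : Fin 4 => φ ω a.val) :=
    ((Fintype.bijective_iff_injective_and_card _).2 ⟨hinj, by simp [hF]⟩).2
  choose a ha using hsurj
  let D : ℕ → ℕ := fun k => if h : k < 9 then (a (v (Classical.choose (exists_zi k h)))).val else 0
  have hD : ∀ k, D k < 4 := by
    intro k
    by_cases h : k < 9
    · simp only [D, dif_pos h]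
      exact (a _).isLt
    · simp only [D, dif_neg h]
      norm_num
  refine ⟨D 0 + 4 * D 1 + 16 * D 2 + 64 * D 3 + 256 * D 4 + 1024 * D 5 + 4096 * D 6 + 16384 * D 7 + 65536 * D 8,
    ?_, funext fun z => ?_⟩
  · have h0 := hD 0
    have h1 := hD 1
    have h2 := hD 2
    have h3 := hD 3
    have h4 := hD 4
    have h5 := hD 5
    have h6 := hD 6
    have h7 := hD 7
    have h8 := hD 8
    omega
  · show φ ω (dg _ (zi z)) = v z
    rw [dg_of_digits D hD _ (zi_lt z)]
    have h := zi_lt z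
    have e : D (zi z) = (a (v z)).val := by
      simp only [D, dif_pos h]
      have h2 := Classical.choose_spec (exists_zi (zi z) h)
      rw [zi_inj _ _ h2]
    rw [e]
    exact ha (v z)

theorem vecOf_zero : vecOf ω 0 = 0 := by
  funext z
  show φ ω (dg 0 (zi z)) = 0
  have : dg 0 (zi z) = 0 := by
    rw [dg_eq]
    simp
  rw [this]
  rfl

theorem exists_to_base [Fintype F] (hF : Fintype.card F = 4) (hg : Good ω) (v : F9 → F) (hv : v ≠ 0)
    (h : ∑ z, (v z) ^ 3 = 0) :
    ∃ g ∈ threeJ3 F ω, ∃ c : F, c ≠ 0 ∧ g.1 *ᵥ v = c • vecOf ω 5 := by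
  obtain ⟨y, hy, rfl⟩ := exists_code_vec hF hg v
  have hy0 : y ≠ 0 := by
    rintro rfl
    exact hv vecOf_zero
  have h1 : hermC y y = 0 := by
    rw [herm_zero_iff hg]
    rw [← h]
    unfold hermF
    exact Finset.sum_congr rfl fun z _ => by ring
  refine iso_tree hg _ y hy rfl ?_
  intro h7
  have h2 := (allBelow_iff _ _).1 isoAll y (by omega)
  unfold isoChk at h2
  rw [force_eq, force_eq] at h2
  have h7' : Nat.land (isoE y) 7 = 7 := h7
  rw [h7'] at h2
  have e1 : Nat.beq y 0 = false := by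
    rw [Bool.eq_false_iff]
    exact fun h3 => hy0 (Nat.eq_of_beq_eq_true h3)
  have e2 : Nat.beq 7 7 = true := rfl
  rw [e2, bcond_true, e1, bcond_false, h1] at h2
  exact absurd h2 (by decide)

theorem iso_trans [Fintype F] (hF : Fintype.card F = 4) (hg : Good ω) (v w : F9 → F) (hv : v ≠ 0) (hw : w ≠ 0)
    (h1 : ∑ z, (v z) ^ 3 = 0) (h2 : ∑ z, (w z) ^ 3 = 0) :
    ∃ g ∈ threeJ3 F ω, ∃ c : F, c ≠ 0 ∧ (g : Matrix F9 F9 F) *ᵥ v = c • w := by
  obtain ⟨g₁, hg₁, c₁, hc₁, e₁⟩ := exists_to_base hF hg v hv h1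
  obtain ⟨g₂, hg₂, c₂, hc₂, e₂⟩ := exists_to_base hF hg w hw h2
  refine ⟨g₂⁻¹ * g₁, mul_mem (inv_mem hg₂) hg₁, c₁ * c₂⁻¹, mul_ne_zero hc₁ (inv_ne_zero hc₂), ?_⟩
  have h3 : ((g₂⁻¹).1 * g₂.1) = 1 := Units.inv_mul g₂
  have h4 : (g₂⁻¹).1 *ᵥ (c₂ • vecOf ω 5) = w := by
    rw [← e₂, Matrix.mulVec_mulVec, h3, Matrix.one_mulVec]
  have h5 : (g₂⁻¹).1 *ᵥ vecOf ω 5 = c₂⁻¹ • w := by
    rw [← h4, Matrix.mulVec_smul, smul_smul, inv_mul_cancel₀ hc₂, one_smul]
  show ((g₂⁻¹).1 * g₁.1) *ᵥ v = _
  rw [← Matrix.mulVec_mulVec, e₁, Matrix.mulVec_smul, h5, smul_smul]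

theorem ptAll : allBelow ptChk 23256 = true := cPt

theorem pt_tree (hg : Good ω) : ∀ (l i : ℕ) (hi : i < N), ptL i = l →
    ∃ g ∈ threeJ3 F ω, ∃ c : F, c ≠ 0 ∧ g.1 *ᵥ vec J ω ⟨i, hi⟩ = c • vec J ω ⟨0, by norm_num⟩ := by
  intro l
  induction l using Nat.strong_induction_on with
  | _ l ih =>
    intro i hi hl
    have h := (allBelow_iff _ _).1 ptAll i hi
    unfold ptChk at h
    rw [force_eq, force_eq] at h
    have hl' : Nat.land (ptE i) 15 = l := hl
    rw [hl'] at h
    cases e0 : Nat.beq l 0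
    · rw [e0, bcond_false, force_eq] at h
      cases e1 : Nat.blt (Nat.shiftRight (ptE i) 4) 43
      · rw [e1, bcond_false] at h
        exact absurd h (by simp)
      · rw [e1, bcond_true] at h
        have hk : Nat.shiftRight (ptE i) 4 < 43 := by simpa [Nat.blt_eq] using e1
        generalize Nat.shiftRight (ptE i) 4 = k at h hk
        have hzl : ptL (T k i) < l := lt_of_blt h
        obtain ⟨hj, c₀, hc₀, e₃⟩ := img_k J hg (show k < 47 by omega) ⟨i, hi⟩
        have hj' : T k i < N := hj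
        obtain ⟨g', hg', c, hc, e⟩ := ih _ hzl (T k i) hj' rfl
        obtain ⟨g₀, hg₀, e₀⟩ := gen_mem hg hk
        refine ⟨g' * g₀, mul_mem hg' hg₀, c * c₀, mul_ne_zero hc hc₀, ?_⟩
        show (g'.1 * g₀.1) *ᵥ _ = _
        rw [← Matrix.mulVec_mulVec, e₀, e₃, Matrix.mulVec_smul]
        have e4 : g'.1 *ᵥ vec J ω ⟨J.T k i, hj⟩ = c • vec J ω ⟨0, by norm_num⟩ := e
        rw [e4, smul_smul, mul_comm c₀ c]
    · rw [e0, bcond_true] at h
      have hi0 : i = 0 := Nat.eq_of_beq_eq_true h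
      subst hi0
      refine ⟨1, one_mem _, 1, one_ne_zero, ?_⟩
      show (1 : Matrix F9 F9 F) *ᵥ _ = _
      rw [Matrix.one_mulVec, one_smul]

theorem tab_zero : J.tab 0 = 1 := by
  show tab 0 = 1
  decide +kernel

theorem dg_one : ∀ z : F9, dg 1 (zi z) = if z = 0 then 1 else 0 := by decide +kernel

theorem vec_zero_eq : vec J ω ⟨0, by norm_num⟩ = (Pi.single (0 : F9) (1 : F) : F9 → F) := by
  funext z
  show φ ω (dg (J.tab 0) (zi z)) = _
  rw [tab_zero, dg_one, Pi.single_apply]
  split_ifs <;> rfl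

theorem vec_ne_zero (hg : Good ω) (i : Fin N) : vec J ω i ≠ 0 := by
  intro h
  have hli : lcN (J.tab i) = 1 := Nat.eq_of_beq_eq_true ((allBelow_iff _ _).1 J.hlead i i.isLt)
  obtain ⟨k, hk, _, h1⟩ := lcN_spec (y := J.tab i) (by rw [hli]; norm_num)
  obtain ⟨z, rfl⟩ := exists_zi k hk
  have h2 := congrFun h z
  have h3 : φ ω (dg (J.tab i) (zi z)) = 0 := h2
  rw [h1, hli] at h3
  exact one_ne_zero h3

theorem ncard_lines [Fintype F] (hg : Good ω) :
    {L : Submodule F (F9 → F) | ∃ g ∈ threeJ3 F ω,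
      L = F ∙ ((g : Matrix F9 F9 F) *ᵥ (Pi.single (0 : F9) (1 : F) : F9 → F))}.ncard = 23256 := by
  classical
  let f : Fin N → Submodule F (F9 → F) := fun i => F ∙ vec J ω i
  have hf : Function.Injective f := by
    intro i j h
    have h1 : vec J ω i ∈ F ∙ vec J ω j := by
      show vec J ω i ∈ f j
      rw [← h]
      exact Submodule.mem_span_singleton_self _
    obtain ⟨c, hc⟩ := Submodule.mem_span_singleton.1 h1
    have hc0 : c ≠ 0 := by
      rintro rfl
      rw [zero_smul] at hc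
      exact vec_ne_zero hg i hc.symm
    exact vec_inj J hg hc.symm hc0
  have hS : {L : Submodule F (F9 → F) | ∃ g ∈ threeJ3 F ω,
      L = F ∙ ((g : Matrix F9 F9 F) *ᵥ (Pi.single (0 : F9) (1 : F) : F9 → F))} = Set.range f := by
    ext L
    constructor
    · rintro ⟨g, hm, rfl⟩
      obtain ⟨c, hc, e⟩ := rep_spec J hg ⟨g, hm⟩ ⟨0, by norm_num⟩
      refine ⟨rep J hg ⟨g, hm⟩ ⟨0, by norm_num⟩, ?_⟩
      rw [vec_zero_eq] at e
      show F ∙ _ = F ∙ _
      have e' : (g : Matrix F9 F9 F) *ᵥ (Pi.single (0 : F9) (1 : F) : F9 → F) =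
          c • vec J ω (rep J hg ⟨g, hm⟩ ⟨0, by norm_num⟩) := e
      rw [e', Submodule.span_singleton_smul_eq (IsUnit.mk0 c hc)]
    · rintro ⟨i, rfl⟩
      obtain ⟨g, hm, c, hc, e⟩ := pt_tree hg _ i.val i.isLt rfl
      refine ⟨g⁻¹, inv_mem hm, ?_⟩
      have h3 : ((g⁻¹).1 * g.1) = 1 := Units.inv_mul g
      have h4 : (g⁻¹).1 *ᵥ (c • vec J ω ⟨0, by norm_num⟩) = vec J ω i := by
        rw [← e, Matrix.mulVec_mulVec, h3, Matrix.one_mulVec]
      have h5 : (g⁻¹).1 *ᵥ vec J ω ⟨0, by norm_num⟩ = c⁻¹ • vec J ω i := by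
        rw [← h4, Matrix.mulVec_smul, smul_smul, inv_mul_cancel₀ hc, one_smul]
      rw [vec_zero_eq] at h5
      show F ∙ _ = F ∙ _
      have e' : ((g⁻¹ : GL F9 F) : Matrix F9 F9 F) *ᵥ (Pi.single (0 : F9) (1 : F) : F9 → F) = c⁻¹ • vec J ω i := h5
      rw [e', Submodule.span_singleton_smul_eq (IsUnit.mk0 _ (inv_ne_zero hc))]
  rw [hS, ← Set.image_univ, Set.ncard_image_of_injective _ hf, Set.ncard_univ, Nat.card_fin]

end field

end Cfsg.Agent.Lib.KnownSimple.J3
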