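import Cfsg.Agent.Lib.KnownSimple.J3.Defs
import Cfsg.Agent.Lib.KnownSimple.J3.DataIso

/-!
# The Janko group: orbit trees on vectors and on the table of points
-/

set_option autoImplicit false

namespace Cfsg.Agent.Lib.KnownSimple.J3

open Cfsg Cfsg.Spor Cfsg.Agent.Lib.Compute Cfsg.Agent.Lib.KnownSimple.PE Cfsg.Agent.Lib.KnownSimple.Leech
open Cfsg.Agent.Lib.KnownSimple Cfsg.Agent.Lib.KnownSimple.AutRigid
open Cfsg.Agent.Lib.KnownSimple.J3Data

/-- The entry of a vector: a distance to the base vector and a generator moving it closer. -/
noncomputable def isoE (y : ℕ) : ℕ := pgetB 9 511 13 8191 isoB y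
/-- The distance to the base vector; the value 7 marks a vector which needs no tree edge. -/
noncomputable def isoL (y : ℕ) : ℕ := Nat.land (isoE y) 7

/-- The check of a vector. -/
noncomputable def isoChk (y : ℕ) : Bool :=
  force (isoE y) fun e =>
    force (Nat.land e 7) fun l =>
      bcond (Nat.beq l 7) (bcond (Nat.beq y 0) true (Nat.blt 0 (hermC y y)))
        (bcond (Nat.beq l 0)
          (force (lcN y) fun s =>
            bcond (Nat.blt 0 s) (allBelow (fun m => Nat.beq (dg y m) (mulN s (dg 5 m))) 9) false)
          (force (Nat.shiftRight e 3) fun k =>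
            bcond (Nat.blt k 43)
              (force (matEval (gC k) y) fun z =>
                bcond (Nat.blt z 262144) (Nat.blt (Nat.land (isoE z) 7) l) false) false))

/-- The entry of a point of the table: a distance to the base point and a generator moving it closer. -/
noncomputable def ptE (i : ℕ) : ℕ := pgetB 10 1023 10 1023 ptB i
/-- The distance to the base point. -/
noncomputable def ptL (i : ℕ) : ℕ := Nat.land (ptE i) 15

/-- The check of a point of the table. -/
noncomputable def ptChk (i : ℕ) : Bool :=
  force (ptE i) fun e =>
    force (Nat.land e 15) fun l =>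
      bcond (Nat.beq l 0) (Nat.beq i 0)
        (force (Nat.shiftRight e 4) fun k =>
          bcond (Nat.blt k 43) (Nat.blt (Nat.land (ptE (T k i)) 15) l) false)

end Cfsg.Agent.Lib.KnownSimple.J3
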